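import Cfsg.Agent.H335.TC.ESixGrp
import Cfsg.Agent.H150.Pw.ERow
import Cfsg.Agent.H267.Ore.LinTwo
import Cfsg.Agent.H494.TC.Base

/-!
# `E₆(2)`: one class of elements of order `31` (S4173, S2464, S2452; helper335)

`pp_E6_two` : `x` of order `31`, every `g ≠ 1` is a product of two conjugates of `x`.
-/

set_option autoImplicit false
set_option linter.unusedSectionVars false

namespace Cfsg.Agent.H335.TC

open CoxeterSystem Cfsg.Agent.ChevalleyStructure.CoxeterGeom Cfsg.Agent.Tits.Roots Cfsg.Agent.Tits.Core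
  Cfsg.Agent.Nodes.Reps Cfsg.Agent.Nodes.BNOf Cfsg.Agent.Nodes.RGDLib Cfsg.Agent.Nodes.Bruhat
  Cfsg.Agent.Nodes.OppDec Cfsg.Agent.Nodes.LeviDec Cfsg.Agent.Nodes.KindChev Cfsg.Agent.Nodes.ChevCls
  Cfsg.Agent.OddHalf.NI.ModelChev Cfsg.Agent.Nodes.StabComb
  Cfsg.Agent.H162.GaussDec Cfsg.Agent.H162.GaussLevi Cfsg.Agent.H162.GaussSL Cfsg.Agent.H162.GaussReg
  Cfsg.Agent.H162.GaussPQ
  Cfsg.Agent.H928.Ore.Frame
open Cfsg.Lie Cfsg.Agent.ChevalleyStructure Cfsg.Agent.ChevalleyStructure.Elts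
  Cfsg.Agent.ChevalleyStructure.RootVec Cfsg.Agent.ChevalleyStructure.NPerm
  Cfsg.Agent.ChevalleyStructure.CoxeterGeomTypes Cfsg.Agent.Nodes.RGDChev Cfsg.Agent.KFacts.RgdChevCoord
open Cfsg.Agent.H150.E6T (hp6 cs6)
open Cfsg.Agent.H78.Pw Cfsg.Agent.H85.Pw Cfsg.Agent.H194.Pw
open Cfsg.Agent.H162.GaussExc (coord)
open Cfsg.Agent.H150.Pw (sup_le_range zmod_one)

universe u

variable {K : Type u} [Field K]

/-- the corner with a nontrivial component in `SL₅(2)` -/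
theorem corner_E6 [Finite K] (hK : Nat.card K = 2) {g : ↥(chevE6.group K)} (hg : g ≠ 1) :
    ∃ x, ∃ v ∈ VNJ cs6 hp6.isCartan (XX chevE6 6 K) {k | k ∈ J5}, ∃ A : Matrix.SpecialLinearGroup (Fin 5) K, A ≠ 1 ∧
      ∃ u ∈ VJ cs6 hp6.isCartan (XX chevE6 6 K) {k | k ∈ J5}, x * g * x⁻¹ = v * phi5 K A * u := by
  obtain ⟨p, hpc⟩ := CharP.exists K
  have : Fact p.Prime := ⟨(CharP.char_is_prime_or_zero K p).resolve_right (CharP.char_ne_zero_of_finite K p)⟩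
  have hS : IsSimpleGroup ↥(chevE6.group K) ∧ ¬ IsMulCommutative ↥(chevE6.group K) :=
    Cfsg.Agent.S1054.result chevE6 (by simp)
  obtain ⟨x, v, hv, l, hl, hl1, u, hu, e⟩ := Cfsg.Agent.H335.TC.E6G.corner_ne hK
    (Cfsg.Agent.H224.Ore.Row.not_mem_core (by norm_num) hS.1 p hp6 hg)
  obtain ⟨A, rfl⟩ := sup_le_range hl
  refine ⟨x, v, hv, A, ?_, u, hu, e⟩
  rintro rfl
  exact hl1 (map_one _)

/-- products in `SL₅(2)` -/
theorem exists_prod_five [Fintype K] (hK : Fintype.card K = 2) : ∃ f : Polynomial K, Irreducible f ∧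
    ∀ A : Matrix.SpecialLinearGroup (Fin 5) K, A ≠ 1 → ∃ X Y : Matrix.SpecialLinearGroup (Fin 5) K, A = X * Y ∧
      X.1.charpoly = f ∧ Y.1.charpoly = f := by
  classical
  have : Fact (Nat.Prime 2) := ⟨Nat.prime_two⟩
  obtain ⟨σ⟩ : Nonempty (ZMod 2 ≃+* K) := ⟨ZMod.ringEquivOfPrime K Nat.prime_two hK⟩
  refine ⟨(Cfsg.Agent.H934.MF.mono (Cfsg.Agent.H934.MF.zl Cfsg.Agent.H934.MF.lFive)).map (σ : ZMod 2 →+* K),
    (MulEquiv.irreducible_iff (Polynomial.mapEquiv σ)).2 Cfsg.Agent.H934.MF.irrFive, fun A hA => ?_⟩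
  have hne : A.1.map σ.symm ≠ 1 := by
    intro h1
    apply hA
    have h3 : (A.1.map σ.symm).map σ = (1 : Matrix (Fin 5) (Fin 5) (ZMod 2)).map σ := by rw [h1]
    rw [Matrix.map_map, Matrix.map_one σ (map_zero σ) (map_one σ)] at h3
    refine Subtype.ext ?_
    rw [Matrix.SpecialLinearGroup.coe_one, ← h3]
    ext i j
    simp
  obtain ⟨X, Y, e, hX, hY⟩ := Cfsg.Agent.H934.MF.prodFive (A.1.map σ.symm) (by
    have h1 : (A.1.map σ.symm).det = σ.symm A.1.det := (RingHom.map_det (σ.symm : K →+* ZMod 2) A.1).symm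
    rw [h1, A.2, map_one]
    exact one_ne_zero) hne
  have hd : (X.map σ).det * (Y.map σ).det = 1 := by
    have h1 : X.map σ * Y.map σ = A.1 := by
      have h2 : (X * Y).map σ = X.map σ * Y.map σ := Matrix.map_mul (f := (σ : ZMod 2 →+* K))
      rw [← h2, ← e]
      ext i j
      simp
    rw [← Matrix.det_mul, h1, A.2]
  have h1 : ∀ x : K, x ≠ 0 → x = 1 := fun x hx => Cfsg.Agent.H267.Ore.eq_one_of_ne_zero hK hx
  refine ⟨⟨X.map σ, h1 _ (left_ne_zero_of_mul_eq_one hd)⟩, ⟨Y.map σ, h1 _ (right_ne_zero_of_mul_eq_one hd)⟩,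
    Subtype.ext ?_, ?_, ?_⟩
  · have h2 : (X * Y).map σ = X.map σ * Y.map σ := Matrix.map_mul (f := (σ : ZMod 2 →+* K))
    change A.1 = X.map σ * Y.map σ
    rw [← h2, ← e]
    ext i j
    simp
  · change (X.map σ).charpoly = _
    rw [← hX]
    exact Matrix.charpoly_map X (σ : ZMod 2 →+* K)
  · change (Y.map σ).charpoly = _
    rw [← hY]
    exact Matrix.charpoly_map Y (σ : ZMod 2 →+* K)

/-- **`E₆(2)`** : one class of elements of order `31`. -/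
theorem pp_E6_two (hK : Nat.card K = 2) : Cfsg.Agent.H494.TC.PP ↥(chevE6.group K) := by
  have : Finite K := Nat.finite_of_card_ne_zero (by rw [hK]; norm_num)
  have := Fintype.ofFinite K
  obtain ⟨p, hpc⟩ := CharP.exists K
  have : Fact p.Prime := ⟨(CharP.char_is_prime_or_zero K p).resolve_right (CharP.char_ne_zero_of_finite K p)⟩
  have hS : IsSimpleGroup ↥(chevE6.group K) := (Cfsg.Agent.S1054.result chevE6 (by simp)).1
  have := finite_W hp6 cs6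
  have R := rgd (K := K) hp6 cs6 p
  have hK' : Fintype.card K = 2 := by rw [← Nat.card_eq_fintype_card, hK]
  obtain ⟨f, hf, hprod⟩ := exists_prod_five hK'
  obtain ⟨X₀, -, -, hX₀, -⟩ := hprod _ (Cfsg.Agent.H150.Pw.A5.ne (K := K)).symm
  have key : ∀ g : ↥(chevE6.group K), g ≠ 1 → ∃ u v : ↥(chevE6.group K),
      g = (u * phi5 K X₀ * u⁻¹) * (v * phi5 K X₀ * v⁻¹) := by
    intro g hg
    obtain ⟨x, v, hv, A, hA, u, hu, e⟩ := corner_E6 hK hg
    obtain ⟨X, Y, rfl, hX, hY⟩ := hprod A hA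
    have hnf : ∀ X : Matrix.SpecialLinearGroup (Fin 5) K, X.1.charpoly = f →
        NF (VJ cs6 hp6.isCartan (XX chevE6 6 K) {k | k ∈ J5}) (phi5 K X) ∧
          NF (VNJ cs6 hp6.isCartan (XX chevE6 6 K) {k | k ∈ J5}) (phi5 K X) := by
      intro X hX
      have h := nf_six (X := X) (by rw [← hX] at hf; exact hf) (x := 1) (one_pow _)
      rwa [Phi5_A] at h
    obtain ⟨a, ha, e1⟩ := exists_conj_of_fix R (LJ_le_normalizer_VNJ R {k | k ∈ J5} (phi5_mem X)) (hnf X hX).2 hv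
    have hu' : phi5 K Y * u * (phi5 K Y)⁻¹ ∈ VJ cs6 hp6.isCartan (XX chevE6 6 K) {k | k ∈ J5} :=
      (Subgroup.mem_normalizer_iff.1 (LJ_le_normalizer_VJ R {k | k ∈ J5} (phi5_mem Y)) u).1 hu
    obtain ⟨b, hb, e2⟩ := exists_conj_of_fix R (LJ_le_normalizer_VJ R {k | k ∈ J5} (phi5_mem Y)) (hnf Y hY).1 hu'
    have e3 : x * g * x⁻¹ = (a * phi5 K X * a⁻¹) * (b * phi5 K Y * b⁻¹) := by
      rw [e, ← e1, ← e2, map_mul]
      group
    obtain ⟨P, hP⟩ := Cfsg.Agent.H267.Ore.exists_conj_SL hK' (X := X₀) (Y := X) (by rw [hX₀]; exact hf)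
      (by rw [hX, hX₀])
    obtain ⟨Q, hQ⟩ := Cfsg.Agent.H267.Ore.exists_conj_SL hK' (X := X₀) (Y := Y) (by rw [hX₀]; exact hf)
      (by rw [hY, hX₀])
    refine ⟨x⁻¹ * a * phi5 K P, x⁻¹ * b * phi5 K Q, ?_⟩
    have e4 : g = x⁻¹ * (x * g * x⁻¹) * x := by group
    rw [e4, e3, hP, hQ, map_mul, map_mul, map_mul, map_mul, map_inv, map_inv]
    group
  have hne : phi5 K X₀ ≠ 1 := by
    intro h1
    obtain ⟨g, hg⟩ := exists_ne (1 : ↥(chevE6.group K))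
    obtain ⟨u, v, e⟩ := key g hg
    apply hg
    rw [e, h1]
    group
  have h31 : phi5 K X₀ ^ 31 = 1 := by
    have h3 := irr_pow (h := (by rw [hX₀]; exact hf : Irreducible (X₀ : Matrix (Fin 5) (Fin 5) K).charpoly))
    rw [hK] at h3
    have h4 : (∑ a ∈ Finset.range 5, 2 ^ a : ℕ) = 31 := by decide
    rw [h4] at h3
    rw [← map_pow, h3, map_one]
  have : Fact (Nat.Prime 31) := ⟨by norm_num⟩
  have ho : orderOf (phi5 K X₀) = 31 := orderOf_eq_prime h31 hne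
  exact ⟨phi5 K X₀, by rw [ho]; norm_num, by rw [ho]; norm_num, key⟩

end Cfsg.Agent.H335.TC
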